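import Mathlib
import Cfsg.Agent.Lib.Helper60.U64.Defs
import Cfsg.Agent.Lib.Helper40.UnitaryWall
import Cfsg.Agent.Lib.Helper40.Diag
import Cfsg.Agent.Lib.Helper40.Subf3
import Cfsg.Agent.Lib.Helper13.HermBasis

/-!
# U64 (S6001), package [P3]: elements of order 3 modulo scalars of `SU_4(p)`, `p ≡ 7 (mod 12)`

A non-scalar `x ∈ SU_4(p)` with `x ^ 3` scalar is `GL`-conjugate to a scalar multiple of
`u ⊗ u` or `1 ⊗ u`, elements of the normalizer of the Pauli group whose unitary centralizers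
have all determinants of norm one.
-/

set_option autoImplicit false

namespace Cfsg.Agent.Lib.Helper43.U64

open Matrix Polynomial Cfsg.Agent.Lib.Helper60.U64 Cfsg.Agent.Lib.Helper40.UnitaryWall
  Cfsg.Agent.Lib.Helper45

universe u

section field

variable {F : Type u} [Field F] [Fintype F] {p : ℕ}

theorem p3_natCast_p (hF : Fintype.card F = p ^ 2) : (p : F) = 0 := by
  have h1 : ((Fintype.card F : ℕ) : F) = 0 := Nat.cast_card_eq_zero F
  rw [hF] at h1
  push_cast at h1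
  exact pow_eq_zero_iff (two_ne_zero) |>.mp h1

theorem p3_two_ne (hF : Fintype.card F = p ^ 2) (hp4 : p % 4 = 3) : (2 : F) ≠ 0 := by
  intro h
  have h0 := p3_natCast_p hF
  have h1 : p = 2 * (p / 2) + 1 := by omega
  rw [h1] at h0
  push_cast at h0
  rw [h, zero_mul, zero_add] at h0
  exact one_ne_zero h0

theorem p3_three_ne (hF : Fintype.card F = p ^ 2) (hp3 : p % 3 = 1) : (3 : F) ≠ 0 := by
  intro h
  have h0 := p3_natCast_p hF
  have h1 : p = 3 * (p / 3) + 1 := by omega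
  rw [h1] at h0
  push_cast at h0
  rw [h, zero_mul, zero_add] at h0
  exact one_ne_zero h0

theorem p3_i_pow (hp4 : p % 4 = 3) (i : F) (hi : i * i = -1) : i ^ p = -i := by
  have h1 : p = 4 * (p / 4) + 3 := by omega
  have h4 : i ^ 4 = 1 := by
    have : i ^ 4 = (i * i) * (i * i) := by ring
    rw [this, hi]; ring
  rw [h1, pow_add, pow_mul, h4, one_pow, one_mul]
  have : i ^ 3 = (i * i) * i := by ring
  rw [this, hi]; ring

theorem p3_pow_succ_of_pow_four (hp4 : p % 4 = 3) (z : F) (hz : z ^ 4 = 1) : z ^ (p + 1) = 1 := by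
  have h1 : p + 1 = 4 * (p / 4 + 1) := by omega
  rw [h1, pow_mul, hz, one_pow]

theorem p3_exists_omega (hF : Fintype.card F = p ^ 2) (hp3 : p % 3 = 1) :
    ∃ ω : F, ω * ω + ω + 1 = 0 ∧ ω ^ p = ω := by
  classical
  have hcard : Fintype.card Fˣ = p ^ 2 - 1 := by rw [Fintype.card_units, hF]
  have h3 : 3 ∣ Fintype.card Fˣ := by
    rw [hcard]
    have h1 : p ^ 2 % 3 = 1 := by rw [Nat.pow_mod, hp3]
    have h2 : 1 ≤ p ^ 2 := Nat.one_le_pow _ _ (by omega)
    generalize p ^ 2 = n at h1 h2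
    omega
  haveI : Fact (Nat.Prime 3) := ⟨Nat.prime_three⟩
  obtain ⟨w, hw⟩ := exists_prime_orderOf_dvd_card (G := Fˣ) 3 h3
  have hw3 : (w : F) ^ 3 = 1 := by
    have := pow_orderOf_eq_one w
    rw [hw] at this
    have h := congrArg (fun x : Fˣ => (x : F)) this
    simpa using h
  have hw1 : (w : F) ≠ 1 := by
    intro h
    have : w = 1 := Units.ext h
    rw [this, orderOf_one] at hw
    omega
  refine ⟨(w : F), ?_, ?_⟩
  · have h : ((w : F) - 1) * ((w : F) * (w : F) + (w : F) + 1) = 0 := by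
      linear_combination hw3
    rcases mul_eq_zero.mp h with h | h
    · exact absurd (sub_eq_zero.mp h) hw1
    · exact h
  · have h1 : p = 3 * (p / 3) + 1 := by omega
    rw [h1, pow_add, pow_mul, hw3, one_pow, one_mul, pow_one]

end field

section omega

variable {F : Type u} [Field F]

theorem p3_omega_ne_one (h3 : (3 : F) ≠ 0) (ω : F) (hω : ω * ω + ω + 1 = 0) : ω ≠ 1 := by
  intro h
  rw [h] at hω
  apply h3
  linear_combination hω

theorem p3_omega_sq_ne_one (h3 : (3 : F) ≠ 0) (ω : F) (hω : ω * ω + ω + 1 = 0) : ω ^ 2 ≠ 1 := by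
  intro h
  have h1 : ω = -2 := by linear_combination hω - h
  rw [h1] at hω
  apply h3
  linear_combination hω

theorem p3_omega_ne_sq (h3 : (3 : F) ≠ 0) (ω : F) (hω : ω * ω + ω + 1 = 0) : ω ≠ ω ^ 2 := by
  intro h
  have h1 : ω * (ω - 1) = 0 := by linear_combination -h
  rcases mul_eq_zero.mp h1 with h2 | h2
  · rw [h2] at hω
    simp at hω
  · exact p3_omega_ne_one h3 ω hω (sub_eq_zero.mp h2)

theorem p3_omega_cube (ω : F) (hω : ω * ω + ω + 1 = 0) : ω ^ 3 = 1 := by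
  linear_combination (ω - 1) * hω

theorem p3_prod_eq (ω : F) (hω : ω * ω + ω + 1 = 0) :
    ((X - C (1 : F)) * ((X - C ω) * (X - C (ω ^ 2))) : F[X]) = X ^ 3 - 1 := by
  have hc : (C ω * C ω + C ω + 1 : F[X]) = 0 := by
    have := congrArg (C : F → F[X]) hω
    simpa using this
  rw [map_pow, map_one]
  linear_combination ((X - 1) * (C ω - 1 - X)) * hc

end omega

section rank

variable {F : Type u} [Field F]

theorem p3_eq_zero_of_rank_eq_zero (M : M4 F) (h : M.rank = 0) : M = 0 := by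
  classical
  have h1 : LinearMap.range M.mulVecLin = ⊥ := Submodule.finrank_eq_zero.mp h
  have h2 : M.mulVecLin = 0 := LinearMap.range_eq_bot.mp h1
  ext i j
  have h3 := congrFun (LinearMap.congr_fun h2 (Pi.single j 1)) i
  rw [Matrix.mulVecLin_apply, Matrix.mulVec_single_one] at h3
  exact h3

/-- a matrix of full rank has trivial kernel -/
theorem p3_eq_zero_of_rank_eq_four (M : M4 F) (h : M.rank = 4) (v : Fin 4 → F)
    (hv : M *ᵥ v = 0) : v = 0 := by
  classical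
  have h1 : LinearMap.range M.mulVecLin = ⊤ := by
    apply Submodule.eq_top_of_finrank_eq
    rw [Module.finrank_fin_fun]
    exact h
  have h2 : Function.Surjective M.mulVecLin := LinearMap.range_eq_top.mp h1
  have h3 : Function.Injective M.mulVecLin := LinearMap.injective_iff_surjective.mpr h2
  apply h3
  rw [Matrix.mulVecLin_apply, hv, map_zero]

variable (σ : F →+* F)

theorem p3_cstar_sub (A B : M4 F) : cstar σ (A - B) = cstar σ A - cstar σ B := by
  ext j k; simp [cstar_apply]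

theorem p3_cstar_smul (c : F) (A : M4 F) : cstar σ (c • A) = σ c • cstar σ A := by
  ext j k; simp [cstar_apply]

theorem p3_rank_cstar (A : M4 F) : (cstar σ A).rank = A.rank := by
  unfold cstar
  rw [Matrix.rank_transpose, Cfsg.Agent.Lib.Helper40.Subf.rank_map]

/-- unitary: the eigenvalues `ω` and `ω²` have the same multiplicity -/
theorem p3_rank_sq (ω : F) (hω : ω * ω + ω + 1 = 0) (hσω : σ ω = ω) (t : M4 F)
    (hu : cstar σ t * t = 1) :
    (t - (ω ^ 2) • (1 : M4 F)).rank = (t - ω • (1 : M4 F)).rank := by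
  have hu' : t * cstar σ t = 1 := mul_eq_one_comm.mp hu
  have hω3 := p3_omega_cube ω hω
  have hω0 : ω ≠ 0 := by
    rintro rfl
    simp at hω
  have e : t - (ω ^ 2) • (1 : M4 F) = ((-ω ^ 2) • t) * cstar σ (t - ω • (1 : M4 F)) := by
    rw [p3_cstar_sub, cstar_smul_one, hσω, Matrix.mul_sub, Matrix.smul_mul, hu', Matrix.smul_mul,
      Matrix.mul_smul, Matrix.mul_one, smul_smul]
    have h1 : -ω ^ 2 * ω = -1 := by linear_combination -hω3
    rw [h1, neg_smul, neg_smul, one_smul]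
    abel
  have hdet : IsUnit ((-ω ^ 2) • t).det := by
    rw [Matrix.det_smul, isUnit_iff_ne_zero]
    have h1 : t.det ≠ 0 := by
      have := congrArg Matrix.det hu
      rw [Matrix.det_mul, Matrix.det_one] at this
      exact right_ne_zero_of_mul_eq_one this
    exact mul_ne_zero (pow_ne_zero _ (neg_ne_zero.mpr (pow_ne_zero _ hω0))) h1
  rw [e, Matrix.rank_mul_eq_right_of_isUnit_det _ _ hdet, p3_rank_cstar]

theorem p3_aeval [DecidableEq F] (h3 : (3 : F) ≠ 0) (ω : F) (hω : ω * ω + ω + 1 = 0) (t : M4 F)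
    (ht3 : t ^ 3 = 1) : aeval t (∏ ζ ∈ ({1, ω, ω ^ 2} : Finset F), (X - C ζ)) = 0 := by
  have n1 := p3_omega_ne_one h3 ω hω
  have n2 := p3_omega_sq_ne_one h3 ω hω
  have n3 := p3_omega_ne_sq h3 ω hω
  rw [Finset.prod_insert (by simp [Ne.symm n1, Ne.symm n2]), Finset.prod_insert (by simp [n3]),
    Finset.prod_singleton, p3_prod_eq ω hω]
  simp [ht3]

/-- the two possible types: `(1,1,ω,ω²)` and `(ω,ω,ω²,ω²)` -/
def IsTy1 (ω : F) (t : M4 F) : Prop :=
  (t - (1 : F) • (1 : M4 F)).rank = 2 ∧ (t - ω • (1 : M4 F)).rank = 3 ∧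
    (t - (ω ^ 2) • (1 : M4 F)).rank = 3

def IsTy2 (ω : F) (t : M4 F) : Prop :=
  (t - (1 : F) • (1 : M4 F)).rank = 4 ∧ (t - ω • (1 : M4 F)).rank = 2 ∧
    (t - (ω ^ 2) • (1 : M4 F)).rank = 2

theorem p3_type (h3 : (3 : F) ≠ 0) (ω : F) (hω : ω * ω + ω + 1 = 0) (hσω : σ ω = ω) (t : M4 F)
    (hu : cstar σ t * t = 1) (ht3 : t ^ 3 = 1) (ht1 : t ≠ 1) : IsTy1 ω t ∨ IsTy2 ω t := by
  classical
  have n1 := p3_omega_ne_one h3 ω hω
  have n2 := p3_omega_sq_ne_one h3 ω hω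
  have n3 := p3_omega_ne_sq h3 ω hω
  have hsum := Cfsg.Agent.Lib.Helper40.Diag.sum_sub_rank t ({1, ω, ω ^ 2} : Finset F)
    (p3_aeval h3 ω hω t ht3)
  rw [Finset.sum_insert (by simp [Ne.symm n1, Ne.symm n2]), Finset.sum_insert (by simp [n3]),
    Finset.sum_singleton] at hsum
  have hrk := p3_rank_sq σ ω hω hσω t hu
  have b0 : (t - (1 : F) • (1 : M4 F)).rank ≤ 4 := by
    simpa using Matrix.rank_le_card_width (t - (1 : F) • (1 : M4 F))
  have b1 : (t - ω • (1 : M4 F)).rank ≤ 4 := by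
    simpa using Matrix.rank_le_card_width (t - ω • (1 : M4 F))
  have hne : (t - (1 : F) • (1 : M4 F)).rank ≠ 0 := by
    intro h0
    apply ht1
    have := p3_eq_zero_of_rank_eq_zero _ h0
    rw [one_smul, sub_eq_zero] at this
    exact this
  unfold IsTy1 IsTy2
  omega

theorem p3_similar (h3 : (3 : F) ≠ 0) (ω : F) (hω : ω * ω + ω + 1 = 0) (t U : M4 F)
    (ht3 : t ^ 3 = 1) (hU3 : U ^ 3 = 1)
    (h : (IsTy1 ω t ∧ IsTy1 ω U) ∨ (IsTy2 ω t ∧ IsTy2 ω U)) :
    ∃ P : GL (Fin 4) F, (P : M4 F) * t = U * P := by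
  classical
  apply Cfsg.Agent.Lib.Helper40.Diag.similar_of_rank_eq t U ({1, ω, ω ^ 2} : Finset F)
    (p3_aeval h3 ω hω t ht3) (p3_aeval h3 ω hω U hU3)
  intro ζ hζ
  simp only [Finset.mem_insert, Finset.mem_singleton] at hζ
  unfold IsTy1 IsTy2 at h
  rcases h with ⟨⟨a0, a1, a2⟩, ⟨b0, b1, b2⟩⟩ | ⟨⟨a0, a1, a2⟩, ⟨b0, b1, b2⟩⟩ <;>
    rcases hζ with rfl | rfl | rfl <;> omega

end rank

section expl


variable {F : Type u} [Field F]

theorem p3_mU0_quad (i : F) (hi : i * i = -1) (h2 : (2 : F) ≠ 0) :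
    mU0 i * mU0 i + mU0 i + 1 = 0 := by
  ext j k
  fin_cases j <;> fin_cases k <;>
    simp [mU0, Matrix.mul_apply, Fin.sum_univ_four, Matrix.one_apply] <;>
    field_simp <;>
    first
      | ring1
      | linear_combination (1 : F) * hi
      | linear_combination (-1 : F) * hi
      | linear_combination (2 : F) * hi
      | linear_combination (-2 : F) * hi

theorem p3_mU2_fix (i : F) (h2 : (2 : F) ≠ 0) :
    (mU2 i - (1 : F) • (1 : M4 F)) *ᵥ ![0, 1, -1, 0] = 0 := by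
  ext j
  fin_cases j <;>
    simp [mU2, Matrix.mulVec, dotProduct, Fin.sum_univ_four, Matrix.one_apply] <;>
    field_simp <;> ring


theorem p3_mU0_inv (i : F) (hi : i * i = -1) (h2 : (2 : F) ≠ 0) (h3 : (3 : F) ≠ 0) :
    (mU0 i - (1 : F) • (1 : M4 F)) * ((3 : F)⁻¹ • (-(mU0 i) - (2 : F) • (1 : M4 F))) = 1 := by
  ext j k
  fin_cases j <;> fin_cases k <;>
    simp [mU0, Matrix.mul_apply, Fin.sum_univ_four, Matrix.one_apply] <;>
    field_simp <;>
    first
      | ring1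
      | linear_combination (1 : F) * hi
      | linear_combination (-1 : F) * hi
      | linear_combination (2 : F) * hi
      | linear_combination (-2 : F) * hi
      | linear_combination (3 : F) * hi
      | linear_combination (-3 : F) * hi
      | linear_combination (4 : F) * hi
      | linear_combination (-4 : F) * hi

def cM2 (b : F) : M4 F := !![1, 0, 0, 0; 0, 1 - b, b, 0; 0, b, 1 - b, 0; 0, 0, 0, 1]

theorem p3_cM2_comm (i b : F) : cM2 b * mU2 i = mU2 i * cM2 b := by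
  ext j k
  fin_cases j <;> fin_cases k <;>
    simp [cM2, mU2, Matrix.mul_apply, Fin.sum_univ_four] <;> ring

theorem p3_cM2_cstar (σ : F →+* F) (b : F) : cstar σ (cM2 b) = cM2 (σ b) := by
  ext j k
  fin_cases j <;> fin_cases k <;> simp [cM2, cstar_apply]

theorem p3_cM2_mul (b b' : F) (h : b + b' = 2 * b' * b) : cM2 b' * cM2 b = 1 := by
  ext j k
  fin_cases j <;> fin_cases k <;>
    simp [cM2, Matrix.mul_apply, Fin.sum_univ_four, Matrix.one_apply] <;>
    first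
      | ring1
      | linear_combination (1 : F) * h
      | linear_combination (-1 : F) * h

theorem p3_cM2_det (b : F) : (cM2 b).det = 1 - 2 * b := by
  simp [cM2, Matrix.det_succ_row_zero, Fin.sum_univ_succ]
  ring


/-- `blockdiag(a + b u, 1)`, in the centralizer of `1 ⊗ u`. -/
def cM0 (i a b : F) : M4 F :=
  !![a + b * (2⁻¹ * (-1 - i)), b * (2⁻¹ * (-1 - i)), 0, 0;
     b * (2⁻¹ * (1 - i)), a + b * (2⁻¹ * (-1 + i)), 0, 0;
     0, 0, 1, 0;
     0, 0, 0, 1]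

/-- `blockdiag(a + b u⁻¹, 1)`. -/
def cM0' (i a b : F) : M4 F :=
  !![a + b * (2⁻¹ * (-1 + i)), b * (2⁻¹ * (1 + i)), 0, 0;
     b * (2⁻¹ * (-1 + i)), a + b * (2⁻¹ * (-1 - i)), 0, 0;
     0, 0, 1, 0;
     0, 0, 0, 1]

theorem p3_cM0_comm (i a b : F) : cM0 i a b * mU0 i = mU0 i * cM0 i a b := by
  ext j k
  fin_cases j <;> fin_cases k <;>
    simp [cM0, mU0, Matrix.mul_apply, Fin.sum_univ_four] <;> ring

theorem p3_cM0_cstar (σ : F →+* F) (i a b : F) (hσi : σ i = -i) :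
    cstar σ (cM0 i a b) = cM0' i (σ a) (σ b) := by
  ext j k
  have hσ2 : σ 2 = 2 := map_ofNat σ 2
  fin_cases j <;> fin_cases k <;>
    simp [cM0, cM0', cstar_apply, hσi, hσ2, -mul_eq_mul_left_iff, -mul_eq_mul_right_iff] <;>
    first
      | ring1
      | (left; ring1)
      | (left; left; ring1)

theorem p3_cM0_mul (i a b a' b' : F) (hi : i * i = -1) (h2 : (2 : F) ≠ 0)
    (C1 : a' * b = b' * a) (C2 : a' * a + b' * b - b' * a = 1) :
    cM0' i a' b' * cM0 i a b = 1 := by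
  ext j k
  fin_cases j <;> fin_cases k <;>
    simp [cM0, cM0', Matrix.mul_apply, Fin.sum_univ_four, Matrix.one_apply] <;>
    field_simp <;>
    first
      | ring1
      | linear_combination (4 : F) * C2 + (2 * (-1 - i)) * C1 - (2 * b' * b) * hi
      | linear_combination (4 : F) * C2 + (2 * (-1 + i)) * C1 - (2 * b' * b) * hi
      | linear_combination (2 * (-1 - i)) * C1
      | linear_combination (2 * (1 - i)) * C1
      | linear_combination (2 : F) * C2 + ((-1 - i)) * C1 - (b' * b) * hi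
      | linear_combination (2 : F) * C2 + ((-1 + i)) * C1 - (b' * b) * hi
      | linear_combination ((-1 - i)) * C1
      | linear_combination ((1 - i)) * C1

theorem p3_cM0_det (i a b : F) (hi : i * i = -1) (h2 : (2 : F) ≠ 0) :
    (cM0 i a b).det = a * a - a * b + b * b := by
  have e : ∀ x y z w : F, (!![x, y, 0, 0; z, w, 0, 0; 0, 0, 1, 0; 0, 0, 0, 1] : M4 F).det =
      x * w - y * z := by
    intro x y z w
    simp [Matrix.det_succ_row_zero, Fin.sum_univ_succ, Fin.succAbove]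
    try ring
  rw [cM0, e]
  field_simp
  linear_combination (-(b * b * 2)) * hi

theorem p3_param (α β α' β' ω κ δ a b a' b' : F) (hα : α * α' = 1) (hβ : β * β' = 1)
    (hω : ω * ω + ω + 1 = 0) (hκ : κ * (ω - ω * ω) = 1) (hδ : α = β * δ)
    (hb : b = (α - β') * κ) (ha : a = α - b * ω) (hb' : b' = (β - α') * κ)
    (ha' : a' = β - b' * ω) :
    a' * b = b' * a ∧ a' * a + b' * b - b' * a = 1 ∧ a * a - a * b + b * b = δ := by
  refine ⟨?_, ?_, ?_⟩
  · subst ha ha' hb hb'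
    linear_combination κ * hα - κ * hβ
  · subst ha ha'
    have e1 : β * b = κ * (β * α - 1) - κ * (β * β' - 1) := by rw [hb]; ring
    have e2 : b' * α = κ * (β * α - 1) - κ * (α * α' - 1) := by rw [hb']; ring
    linear_combination (-(β * α - 1)) * hκ + (b' * b - κ * (β * α - 1)) * hω + (ω * κ + κ) * hα +
      (ω * κ) * hβ - ω * e1 - (ω + 1) * e2
  · subst ha
    have e1 : b * (ω - ω * ω) = (α - β') + (α - β') * (κ * (ω - ω * ω) - 1) := by rw [hb]; ring
    linear_combination (-(α * (α - β'))) * hκ + (-((α - b * ω) * b) - b * b * (ω - 1)) * hω +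
      δ * hβ + β' * hδ - α * e1

theorem p3_mU0_ty2 (σ : F →+* F) (h2 : (2 : F) ≠ 0) (h3 : (3 : F) ≠ 0) (ω : F)
    (hω : ω * ω + ω + 1 = 0) (hσω : σ ω = ω) (i : F) (hi : i * i = -1)
    (hu : cstar σ (mU0 i) * mU0 i = 1) (hU3 : mU0 i ^ 3 = 1) (hne : mU0 i ≠ 1) :
    IsTy2 ω (mU0 i) := by
  classical
  rcases p3_type σ h3 ω hω hσω (mU0 i) hu hU3 hne with h | h
  · exfalso
    have e := p3_mU0_inv i hi h2 h3
    have hunit : IsUnit (mU0 i - (1 : F) • (1 : M4 F)) :=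
      ⟨⟨_, _, e, mul_eq_one_comm.mp e⟩, rfl⟩
    have h4 := Matrix.rank_of_isUnit _ hunit
    rw [Fintype.card_fin] at h4
    have h5 := h.1
    omega
  · exact h

theorem p3_mU2_ty1 (σ : F →+* F) (h2 : (2 : F) ≠ 0) (h3 : (3 : F) ≠ 0) (ω : F)
    (hω : ω * ω + ω + 1 = 0) (hσω : σ ω = ω) (i : F)
    (hu : cstar σ (mU2 i) * mU2 i = 1) (hU3 : mU2 i ^ 3 = 1) (hne : mU2 i ≠ 1) :
    IsTy1 ω (mU2 i) := by
  rcases p3_type σ h3 ω hω hσω (mU2 i) hu hU3 hne with h | h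
  · exact h
  · exfalso
    have h4 := p3_eq_zero_of_rank_eq_four _ h.1 _ (p3_mU2_fix i h2)
    have h5 := congrFun h4 1
    simp at h5

end expl

section final

variable {F : Type u} [Field F] [Fintype F] {p : ℕ}

/-- assembly: a `GL`-conjugacy of `z • x` with `U` and the centralizer of `U` give `Good`. -/
theorem p3_good_of (hF : Fintype.card F = p ^ 2) (i : F) (x : GL (Fin 4) F) (z : F)
    (hz4 : z ^ 4 = 1) (hzp : z ^ (p + 1) = 1) (U : GL (Fin 4) F) (hUG : U ∈ Cfsg.GU 4 F p)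
    (hUN : U ∈ Subgroup.normalizer ((R0 i : Subgroup (GL (Fin 4) F)) : Set (GL (Fin 4) F)))
    (hconj : ∃ P : GL (Fin 4) F, (P : M4 F) * (z • (x : M4 F)) = (U : M4 F) * P)
    (hcent : ∀ δ : F, δ ^ (p + 1) = 1 → ∃ M : GL (Fin 4) F, M ∈ Cfsg.GU 4 F p ∧
      M * U = U * M ∧ (M : M4 F).det = δ) : Good p i x := by
  have hz0 : z ≠ 0 := by
    rintro rfl
    simp at hz4
  let zG : GL (Fin 4) F := ⟨z • (1 : M4 F), z⁻¹ • (1 : M4 F),
    by rw [smul_mul_smul_comm, mul_inv_cancel₀ hz0, one_mul, one_smul],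
    by rw [smul_mul_smul_comm, inv_mul_cancel₀ hz0, one_mul, one_smul]⟩
  have hzG : (zG : M4 F) = z • (1 : M4 F) := rfl
  have hzc : ∀ g : GL (Fin 4) F, zG * g = g * zG := by
    intro g
    apply Units.ext
    rw [Units.val_mul, Units.val_mul, hzG, Matrix.smul_mul, Matrix.mul_smul, one_mul, mul_one]
  have hzGU : zG ∈ Cfsg.GU 4 F p := by
    rw [mem_GU_iff_cstar hF, hzG, cstar_smul_one, sigmaQ_apply, smul_mul_smul_comm, one_mul,
      ← pow_succ, hzp, one_smul]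
  have hzN : zG ∈ Subgroup.normalizer ((R0 i : Subgroup (GL (Fin 4) F)) : Set (GL (Fin 4) F)) := by
    rw [Subgroup.mem_set_normalizer_iff]
    intro h
    rw [hzc h, mul_inv_cancel_right]
  refine ⟨zG⁻¹ * U, mul_mem (inv_mem hzGU) hUG, mul_mem (inv_mem hzN) hUN, ?_, ?_⟩
  · obtain ⟨P, hP⟩ := hconj
    have h1 : P * (zG * x) = U * P := by
      apply Units.ext
      rw [Units.val_mul, Units.val_mul, Units.val_mul, hzG, Matrix.smul_mul, one_mul]
      exact hP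
    have h2 : zG⁻¹ * P⁻¹ = P⁻¹ * zG⁻¹ := (Commute.inv_left (hzc P⁻¹)).eq
    have hx : x = zG⁻¹ * (P⁻¹ * (U * P)) := by
      rw [← h1]; group
    refine ⟨P⁻¹, ?_⟩
    calc x * P⁻¹ = zG⁻¹ * (P⁻¹ * (U * P)) * P⁻¹ := by rw [← hx]
      _ = (zG⁻¹ * P⁻¹) * U := by group
      _ = P⁻¹ * zG⁻¹ * U := by rw [h2]
      _ = P⁻¹ * (zG⁻¹ * U) := by group
  · intro δ hδ
    obtain ⟨M, hMG, hMU, hMd⟩ := hcent δ hδ
    refine ⟨M, hMG, ?_, hMd⟩
    have h2 : zG⁻¹ * M = M * zG⁻¹ := (Commute.inv_left (hzc M)).eq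
    calc M * (zG⁻¹ * U) = (M * zG⁻¹) * U := by group
      _ = zG⁻¹ * (M * U) := by rw [← h2]; group
      _ = zG⁻¹ * (U * M) := by rw [hMU]
      _ = zG⁻¹ * U * M := by group

/-- [P3] (from the normalizer, unitarity and order facts of the explicit matrices). -/
theorem pkgP3_of (hNU0 : PkgNU0.{u}) (hNU2 : PkgNU2.{u}) (hGUM : PkgGUM.{u})
    (hExpl : PkgExpl.{u}) : PkgP3.{u} := by
  intro F _ _ p i hF hp hp4 hp3 hi x hxG hdet hz hns
  obtain ⟨z, hz⟩ := hz
  classical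
  have h2 := p3_two_ne hF hp4
  have h3 := p3_three_ne hF hp3
  have hip := p3_i_pow hp4 i hi
  obtain ⟨ω, hω, hωp⟩ := p3_exists_omega hF hp3
  obtain ⟨σ, hσ⟩ : ∃ σ : F →+* F, σ = sigmaQ hF := ⟨_, rfl⟩
  have hσa : ∀ a : F, σ a = a ^ p := fun a => by rw [hσ, sigmaQ_apply]
  have hσσ : ∀ a : F, σ (σ a) = a := fun a => by rw [hσa, hσa, conj_conj hF]
  have hσω : σ ω = ω := by rw [hσa, hωp]
  have hσi : σ i = -i := by rw [hσa, hip]
  have hz4 : z ^ 4 = 1 := by
    have h := congrArg Matrix.det hz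
    rw [Matrix.det_pow, hdet, one_pow, Matrix.det_smul, Matrix.det_one, mul_one,
      Fintype.card_fin] at h
    exact h.symm
  have hzp := p3_pow_succ_of_pow_four hp4 z hz4
  have hz0 : z ≠ 0 := by
    rintro rfl
    simp at hz4
  have hxu := (mem_GU_iff_cstar hF x).mp hxG
  rw [← hσ] at hxu
  obtain ⟨t, ht⟩ : ∃ t : M4 F, t = z • (x : M4 F) := ⟨_, rfl⟩
  have htu : cstar σ t * t = 1 := by
    rw [ht, p3_cstar_smul, smul_mul_smul_comm, hxu, hσa, ← pow_succ, hzp, one_smul]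
  have ht3 : t ^ 3 = 1 := by
    rw [ht, _root_.smul_pow, hz, smul_smul, ← pow_succ, hz4, one_smul]
  have ht1 : t ≠ 1 := by
    intro h
    apply hns z⁻¹
    rw [ht] at h
    rw [← h, smul_smul, inv_mul_cancel₀ hz0, one_smul]
  obtain ⟨hU0, hU2, -, -, -, hU0ne, hU2ne⟩ := hExpl F i hi h2
  let U0 : GL (Fin 4) F := ⟨mU0 i, mU0 i ^ 2, by rw [← pow_succ']; exact hU0,
    by rw [← pow_succ]; exact hU0⟩
  let U2 : GL (Fin 4) F := ⟨mU2 i, mU2 i ^ 2, by rw [← pow_succ']; exact hU2,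
    by rw [← pow_succ]; exact hU2⟩
  have hU0v : (U0 : M4 F) = mU0 i := rfl
  have hU2v : (U2 : M4 F) = mU2 i := rfl
  have hU0G : U0 ∈ Cfsg.GU 4 F p := hGUM F p i hF hp hp4 hi hip U0 (Or.inr (Or.inl hU0v))
  have hU2G : U2 ∈ Cfsg.GU 4 F p :=
    hGUM F p i hF hp hp4 hi hip U2 (Or.inr (Or.inr (Or.inl hU2v)))
  have hU0N := hNU0 F i hi h2 U0 hU0v
  have hU2N := hNU2 F i hi h2 U2 hU2v
  have hU0u := (mem_GU_iff_cstar hF U0).mp hU0G
  have hU2u := (mem_GU_iff_cstar hF U2).mp hU2G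
  rw [← hσ, hU0v] at hU0u
  rw [← hσ, hU2v] at hU2u
  have ty0 : IsTy2 ω (mU0 i) := p3_mU0_ty2 σ h2 h3 ω hω hσω i hi hU0u hU0 hU0ne
  have ty2 : IsTy1 ω (mU2 i) := p3_mU2_ty1 σ h2 h3 ω hω hσω i hU2u hU2 hU2ne
  rcases p3_type σ h3 ω hω hσω t htu ht3 ht1 with hty | hty
  · -- type `(1, 1, ω, ω²)`: conjugate to `u ⊗ u`
    have hc := p3_similar h3 ω hω t (mU2 i) ht3 hU2 (Or.inl ⟨hty, ty2⟩)
    rw [ht] at hc
    apply p3_good_of hF i x z hz4 hzp U2 hU2G hU2N hc
    intro δ hδ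
    have hδ' : δ ^ p * δ = 1 := by rw [← pow_succ]; exact hδ
    obtain ⟨b, hb⟩ : ∃ b : F, b = (1 - δ) * 2⁻¹ := ⟨_, rfl⟩
    have hσb : σ b = (1 - δ ^ p) * 2⁻¹ := by
      rw [hb, map_mul, map_sub, map_one, map_inv₀, map_ofNat, hσa]
    have hbb : b + σ b = 2 * σ b * b := by
      rw [hσb, hb]
      field_simp
      linear_combination (-1 : F) * hδ'
    have hNM : cM2 (σ b) * cM2 b = 1 := p3_cM2_mul b (σ b) hbb
    let M : GL (Fin 4) F := ⟨cM2 b, cM2 (σ b), mul_eq_one_comm.mp hNM, hNM⟩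
    have hMv : (M : M4 F) = cM2 b := rfl
    refine ⟨M, ?_, ?_, ?_⟩
    · rw [mem_GU_iff_cstar hF, hMv, ← hσ, p3_cM2_cstar]
      exact hNM
    · apply Units.ext
      rw [Units.val_mul, Units.val_mul, hMv, hU2v]
      exact p3_cM2_comm i b
    · rw [hMv, p3_cM2_det, hb]
      field_simp
      ring
  · -- type `(ω, ω, ω², ω²)`: conjugate to `1 ⊗ u`
    have hc := p3_similar h3 ω hω t (mU0 i) ht3 hU0 (Or.inr ⟨hty, ty0⟩)
    rw [ht] at hc
    apply p3_good_of hF i x z hz4 hzp U0 hU0G hU0N hc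
    intro δ hδ
    have hδ' : δ * σ δ = 1 := by rw [hσa, ← pow_succ']; exact hδ
    have hσne : σ ≠ RingHom.id F := by rw [hσ]; exact sigmaQ_ne_id' hF
    obtain ⟨α, hα0, hα⟩ := Cfsg.Agent.Lib.Helper13.hilbert90_involution σ hσne hσσ δ hδ'
    obtain ⟨β, hβ⟩ : ∃ β : F, β = σ α := ⟨_, rfl⟩
    rw [← hβ] at hα
    have hσβ : σ β = α := by rw [hβ, hσσ]
    have hβ0 : β ≠ 0 := by
      rintro rfl
      rw [zero_mul] at hα
      exact hα0 hα
    have hκ0 : ω - ω * ω ≠ 0 := by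
      have := p3_omega_ne_sq h3 ω hω
      rw [sub_ne_zero, ← sq]
      exact this
    obtain ⟨κ, hκ⟩ : ∃ κ : F, κ = (ω - ω * ω)⁻¹ := ⟨_, rfl⟩
    have hκ1 : κ * (ω - ω * ω) = 1 := by rw [hκ, inv_mul_cancel₀ hκ0]
    have hσκ : σ κ = κ := by
      rw [hκ, map_inv₀, map_sub, map_mul, hσω]
    obtain ⟨b, hb⟩ : ∃ b : F, b = (α - β⁻¹) * κ := ⟨_, rfl⟩
    obtain ⟨a, ha⟩ : ∃ a : F, a = α - b * ω := ⟨_, rfl⟩
    have hσb : σ b = (β - α⁻¹) * κ := by
      rw [hb, map_mul, map_sub, map_inv₀, hσκ, hσβ, ← hβ]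
    have hσa' : σ a = β - σ b * ω := by
      rw [ha, map_sub, map_mul, hσω, ← hβ]
    obtain ⟨C1, C2, C3⟩ := p3_param α β α⁻¹ β⁻¹ ω κ δ a b (σ a) (σ b) (mul_inv_cancel₀ hα0)
      (mul_inv_cancel₀ hβ0) hω hκ1 hα hb ha hσb hσa'
    have hNM : cM0' i (σ a) (σ b) * cM0 i a b = 1 := p3_cM0_mul i a b (σ a) (σ b) hi h2 C1 C2
    let M : GL (Fin 4) F := ⟨cM0 i a b, cM0' i (σ a) (σ b), mul_eq_one_comm.mp hNM, hNM⟩
    have hMv : (M : M4 F) = cM0 i a b := rfl
    refine ⟨M, ?_, ?_, ?_⟩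
    · rw [mem_GU_iff_cstar hF, hMv, ← hσ, p3_cM0_cstar σ i a b hσi]
      exact hNM
    · apply Units.ext
      rw [Units.val_mul, Units.val_mul, hMv, hU0v]
      exact p3_cM0_comm i a b
    · rw [hMv, p3_cM0_det i a b hi h2]
      exact C3

end final

end Cfsg.Agent.Lib.Helper43.U64
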